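import Cfsg.Agent.H46.TypeD4
import Cfsg.Prelude.Def_ChevAutomorphisms

/-!
# The root values of a generator of the torus of order `(q³ - 1)(q + 1)` of ³D₄(q)
-/

set_option autoImplicit false

namespace Cfsg.Agent.H23.D4Torus

open Cfsg.Lie

/-- Coefficients (in powers of `q`) of the torus parameters. -/
def parCoef : Fin 4 → Fin 4 → ℤ := ![![1, 1, 0, 0], ![1, 1, 1, 0], ![0, 1, 1, 0], ![0, 0, 1, 1]]

/-- Coefficients (in powers of `q`) of the root exponents. -/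
def rootCoef (r : Fin 24) (j : Fin 4) : ℤ := ∑ k : Fin 4, chevD4.cartan k.val r.val * parCoef k j

/-- Evaluation at `q`. -/
def evalq (c : Fin 4 → ℤ) (q : ℤ) : ℤ := c 0 + c 1 * q + c 2 * q ^ 2 + c 3 * q ^ 3

/-- The exponent of the root with index `r`. -/
def rootExp (q : ℕ) (r : Fin 24) : ℤ := evalq (rootCoef r) q

/-- The fundamental root indices. -/
def simpleIdx : Fin 4 → Fin 24 := ![18, 14, 13, 12]

/-- The order of the torus. -/
def torusOrder (q : ℕ) : ℕ := (q ^ 3 - 1) * (q + 1)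

theorem torusOrder_cast {q : ℕ} (hq : 1 ≤ q) :
    ((torusOrder q : ℕ) : ℤ) = ((q : ℤ) ^ 3 - 1) * (q + 1) := by
  rw [torusOrder, Nat.cast_mul, Nat.cast_sub (Nat.one_le_pow _ _ hq)]
  push_cast
  ring

theorem coef_small : ∀ r : Fin 24, (∀ j, (rootCoef r j).natAbs ≤ 2) ∧ (∃ j, rootCoef r j ≠ 0) := by
  decide +kernel

theorem coef_inj : ∀ k : Fin 4, ∀ r : Fin 24, (∀ j, rootCoef r j = rootCoef (simpleIdx k) j) → r = simpleIdx k := by
  decide +kernel

theorem evalq_eq_zero {q : ℕ} (hq : 5 ≤ q) {c : Fin 4 → ℤ} (hc : ∀ j, (c j).natAbs ≤ 4)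
    (h : ((torusOrder q : ℕ) : ℤ) ∣ evalq c q) : ∀ j, c j = 0 := by
  have hq' : (5 : ℤ) ≤ q := by exact_mod_cast hq
  have hb : ∀ j, -4 ≤ c j ∧ c j ≤ 4 := fun j => by have := hc j; omega
  obtain ⟨a0, b0⟩ := hb 0
  obtain ⟨a1, b1⟩ := hb 1
  obtain ⟨a2, b2⟩ := hb 2
  obtain ⟨a3, b3⟩ := hb 3
  have hz : evalq c q = 0 := by
    refine Int.eq_zero_of_abs_lt_dvd h ?_
    rw [torusOrder_cast (by omega), evalq, abs_lt]
    have h1 : 0 ≤ (q : ℤ) := by omega
    have h2 : 0 ≤ (q : ℤ) ^ 2 := by positivity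
    have h3 : 0 ≤ (q : ℤ) ^ 3 := by positivity
    constructor <;>
      nlinarith [mul_le_mul_of_nonneg_right a1 h1, mul_le_mul_of_nonneg_right b1 h1,
        mul_le_mul_of_nonneg_right a2 h2, mul_le_mul_of_nonneg_right b2 h2,
        mul_le_mul_of_nonneg_right a3 h3, mul_le_mul_of_nonneg_right b3 h3,
        mul_le_mul_of_nonneg_right hq' h1, mul_le_mul_of_nonneg_right hq' h2, mul_le_mul_of_nonneg_right hq' h3]
  have step : ∀ a m : ℤ, -4 ≤ a → a ≤ 4 → a + m * q = 0 → a = 0 ∧ m = 0 := by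
    intro a m h1 h2 h3
    by_cases hm : m = 0
    · subst hm; omega
    · exfalso
      rcases lt_or_gt_of_ne hm with h4 | h4 <;> nlinarith
  rw [evalq] at hz
  obtain ⟨e0, hz1⟩ := step (c 0) (c 1 + c 2 * q + c 3 * q ^ 2) a0 b0 (by linear_combination hz)
  obtain ⟨e1, hz2⟩ := step (c 1) (c 2 + c 3 * q) a1 b1 (by linear_combination hz1)
  obtain ⟨e2, e3⟩ := step (c 2) (c 3) a2 b2 hz2
  intro j
  fin_cases j <;> assumption

theorem small_ne : ∀ r : Fin 24, ∀ q ∈ [2, 3, 4], ¬ (((torusOrder q : ℕ) : ℤ) ∣ rootExp q r) := by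
  decide +kernel

theorem small_inj : ∀ k : Fin 4, ∀ r : Fin 24, ∀ q ∈ [2, 3, 4],
    ((torusOrder q : ℕ) : ℤ) ∣ rootExp q r - rootExp q (simpleIdx k) →
      r = simpleIdx k ∨ (k = 1 ∧ chevD4.pairing 18 r.val ≠ chevD4.pairing 18 14) := by
  decide +kernel

theorem rootExp_ne {q : ℕ} (hq : 2 ≤ q) (r : Fin 24) : ¬ ((torusOrder q : ℕ) : ℤ) ∣ rootExp q r := by
  by_cases h5 : 5 ≤ q
  · intro h
    obtain ⟨hs, j, hj⟩ := coef_small r
    exact hj (evalq_eq_zero h5 (fun j => (hs j).trans (by omega)) h j)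
  · exact small_ne r q (by simp; omega)

theorem rootExp_inj {q : ℕ} (hq : 2 ≤ q) (k : Fin 4) (r : Fin 24)
    (h : ((torusOrder q : ℕ) : ℤ) ∣ rootExp q r - rootExp q (simpleIdx k)) :
    r = simpleIdx k ∨ (k = 1 ∧ chevD4.pairing 18 r.val ≠ chevD4.pairing 18 14) := by
  by_cases h5 : 5 ≤ q
  · refine Or.inl (coef_inj k r fun j => sub_eq_zero.1 ?_)
    refine evalq_eq_zero h5 (c := fun j => rootCoef r j - rootCoef (simpleIdx k) j) (fun j => ?_) ?_ j
    · exact (Int.natAbs_sub_le _ _).trans (Nat.add_le_add ((coef_small r).1 j) ((coef_small _).1 j))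
    · rw [show evalq (fun j => rootCoef r j - rootCoef (simpleIdx k) j) q =
        rootExp q r - rootExp q (simpleIdx k) by simp only [rootExp, evalq]; ring]
      exact h
  · exact small_inj k r q (by simp; omega) h

/-- Two of the exponents are jointly prime to `q`. -/
theorem dvd_of_dvd_rootExp {q : ℕ} (hq : 2 ≤ q) {N i : ℤ} (h1 : N ∣ i * rootExp q 18) (h3 : N ∣ i * rootExp q 13) :
    N ∣ i := by
  have e1 : rootExp q 18 = -(q : ℤ) ^ 2 + q + 1 := by
    rw [rootExp, show rootCoef 18 = ![1, 1, -1, 0] by decide +kernel]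
    simp [evalq]
    ring
  have e3 : rootExp q 13 = (q : ℤ) ^ 2 + q - 1 := by
    rw [rootExp, show rootCoef 13 = ![-1, 1, 1, 0] by decide +kernel]
    simp [evalq]
    ring
  obtain ⟨m, hm⟩ : (2 : ℤ) ∣ (q : ℤ) * ((q : ℤ) - 1) := by
    rcases Int.even_or_odd (q : ℤ) with ⟨k, hk⟩ | ⟨k, hk⟩
    · exact ⟨k * ((q : ℤ) - 1), by rw [hk]; ring⟩
    · exact ⟨(q : ℤ) * k, by rw [hk]; ring⟩
  have e : i = (i * rootExp q 18) * rootExp q 18 +
      (i * rootExp q 18 + i * rootExp q 13) * (((q : ℤ) - 1) * (1 - m)) := by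
    rw [e1, e3]
    linear_combination -(i * (q : ℤ) * ((q : ℤ) - 1)) * hm
  rw [e]
  exact dvd_add (h1.mul_right _) ((h1.add h3).mul_right _)

end Cfsg.Agent.H23.D4Torus
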