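import Cfsg.Agent.H23.RegularTorus
import Cfsg.Agent.H23.D4Torus.Exponents
import Cfsg.Agent.H23.D4Torus.RankOne
import Cfsg.Agent.H46.TwistD4
import Cfsg.Agent.H65.Chev.Central

/-!
# A self-centralizing cyclic subgroup of order `(q³ - 1)(q + 1)` of ³D₄(q)
-/

set_option autoImplicit false
set_option maxRecDepth 4000

namespace Cfsg.Agent.H23.D4Torus

open Cfsg.Lie Cfsg.Agent.H46 Cfsg.Agent.H23.RankOne
open scoped Matrix

/-- The node `p₂`. -/
abbrev node2 : Fin chevD4.rank := ⟨1, by decide⟩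

/-- The fundamental root `p₂`. -/
abbrev root2 : ℕ := chevD4.simple node2.val

theorem root2_lt : root2 < chevD4.nroots := by decide +kernel

theorem torusVal_d4 {L : Type*} [Field L] (z : Fin chevD4.rank → Lˣ) (r : ℕ) (hr : r < chevD4.nroots) :
    goodD4.torusVal z r = z ⟨0, by decide⟩ ^ chevD4.cartan 0 r * z ⟨1, by decide⟩ ^ chevD4.cartan 1 r *
      z ⟨2, by decide⟩ ^ chevD4.cartan 2 r * z ⟨3, by decide⟩ ^ chevD4.cartan 3 r := by
  have h : goodD4.torusVal z r = ∏ k : Fin 4, z k ^ chevD4.cartan k.val r :=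
    Finset.prod_congr rfl fun (k : Fin chevD4.rank) _ => by rw [goodD4.cartan_eq hr k.2]
  rw [h, Fin.prod_univ_four]
  rfl

/-- The exponents of the torus parameters. -/
def parExp (q : ℕ) : Fin 4 → ℕ := ![q + 1, q ^ 2 + q + 1, q * (q + 1), q ^ 2 * (q + 1)]

theorem torusVal_par {L : Type*} [Field L] (ζ : Lˣ) (q : ℕ) (r : Fin 24) :
    goodD4.torusVal (fun k : Fin chevD4.rank => ζ ^ parExp q k) r = ζ ^ rootExp q r := by
  have e0 : ((parExp q 0 : ℕ) : ℤ) = evalq (parCoef 0) q := by simp [parExp, parCoef, evalq]; ring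
  have e1 : ((parExp q 1 : ℕ) : ℤ) = evalq (parCoef 1) q := by simp [parExp, parCoef, evalq]; ring
  have e2 : ((parExp q 2 : ℕ) : ℤ) = evalq (parCoef 2) q := by simp [parExp, parCoef, evalq]; ring
  have e3 : ((parExp q 3 : ℕ) : ℤ) = evalq (parCoef 3) q := by simp [parExp, parCoef, evalq]; ring
  rw [torusVal_d4 _ r.val r.2]
  change (ζ ^ parExp q 0) ^ chevD4.cartan 0 r.val * (ζ ^ parExp q 1) ^ chevD4.cartan 1 r.val *
    (ζ ^ parExp q 2) ^ chevD4.cartan 2 r.val * (ζ ^ parExp q 3) ^ chevD4.cartan 3 r.val = _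
  simp only [← zpow_natCast ζ, ← zpow_mul, ← zpow_add, e0, e1, e2, e3]
  congr 1
  simp only [rootExp, rootCoef, evalq, Fin.sum_univ_four, Fin.val_zero, Fin.val_one, Fin.val_two]
  rw [show ((3 : Fin 4) : ℕ) = 3 from rfl]
  ring

theorem simple_idx : ∀ k : Fin 4, chevD4.simple k.val = (simpleIdx k).val := by decide +kernel

theorem refl_facts : chevD4.reflectRoot 1 13 = 16 ∧ chevD4.reflectRoot 1 12 = 15 ∧
    chevD4.reflectRoot 1 18 = 19 ∧ chevD4.reflectRoot 1 14 = 9 ∧ chevD4.neg 14 = 9 := by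
  decide +kernel

theorem sum_roots : goodD4.rc 16 = (1 : ℤ) • goodD4.rc 13 + (1 : ℤ) • goodD4.rc 14 ∧
    goodD4.rc 15 = (1 : ℤ) • goodD4.rc 12 + (1 : ℤ) • goodD4.rc 14 ∧
    goodD4.rc 19 = (1 : ℤ) • goodD4.rc 18 + (1 : ℤ) • goodD4.rc 14 := by
  decide +kernel

theorem torusOrder_dvd {q : ℕ} : torusOrder q ∣ q ^ 6 - 1 := by
  refine ⟨q ^ 2 - q + 1, ?_⟩
  rcases Nat.eq_zero_or_pos q with rfl | hq
  · simp [torusOrder]
  · have h3 : 1 ≤ q ^ 3 := Nat.one_le_pow _ _ hq
    have h6 : 1 ≤ q ^ 6 := Nat.one_le_pow _ _ hq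
    have h2 : q ≤ q ^ 2 := Nat.le_self_pow (by omega) q
    rw [torusOrder]
    zify [h3, h6, h2]
    ring

/-- An element fixed by a power map with exponent `m` lies in every subfield having `m` such elements. -/
theorem mem_range_of_pow {K L : Type*} [Field K] [Fintype K] [Field L] [Fintype L] (ι : K →+* L) {m : ℕ}
    (hm : 1 < m) (hK : m - 1 ∣ Fintype.card K - 1) (hL : m - 1 ∣ Fintype.card L - 1) {y : L} (hy : y ^ m = y) :
    ∃ x : K, x ^ m = x ∧ ι x = y := by
  let F : {x : K // x ^ m = x} → {x : L // x ^ m = x} := fun x => ⟨ι x.1, by rw [← map_pow, x.2]⟩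
  have hF : Function.Bijective F :=
    Function.Injective.bijective_of_nat_card_le (fun a b h => Subtype.ext (ι.injective (congrArg Subtype.val h)))
      (by rw [card_pow_eq_self hm hK, card_pow_eq_self hm hL])
  obtain ⟨x, hx⟩ := hF.2 ⟨y, hy⟩
  exact ⟨x.1, x.2, congrArg Subtype.val hx⟩

section twist

variable {K L : Type*} [Field K] [Fintype K] [Field L] {q : ℕ} (f : K →+* K) (hf : ∀ x, f x = x ^ q)
  (hK : Fintype.card K = q ^ 3) (σ : L →+* L) (hσ : ∀ x, σ x = x ^ q) (ι : K →+* L)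

/-- The twisting endomorphism. -/
noncomputable abbrev twistL : GL chevD4.Idx L →* GL chevD4.Idx L := goodD4.twistHom okD4.check σ

include hf hK hσ

/-- The twisted group consists of fixed points. -/
theorem twist_fixed {g : GL chevD4.Idx K} (hg : g ∈ twistedD4 K q) :
    twistL σ (mapL chevD4 ι g) = mapL chevD4 ι g := by
  rw [twistedD4_eq f hf hK, graphD4.G1_eq_closure okD4 coxD4 f] at hg
  induction hg using Subgroup.closure_induction with
  | one => simp
  | mul a b _ _ ha hb => rw [map_mul, map_mul, ha, hb]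
  | inv a _ ha => rw [map_inv, map_inv, ha]
  | mem x hx =>
    obtain ⟨j, c, hc, rfl | rfl⟩ := hx
    · rw [GraphData.pX, GraphData.orbProd, map_list_prod, map_list_prod]
      simp only [List.map_map]
      refine Eq.trans (congrArg List.prod (List.map_congr_left fun k hk => ?_))
        (graphD4.orbProd_perm okD4 (fun k => mapL chevD4 ι (goodD4.xg (chevD4.simple k) (c k))) ?_)
      · simp only [Function.comp_apply, mapL_xg goodD4, twistL, graphD4.twist_simple okD4]
        rw [hc k hk, hσ, hf, map_pow]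
      · intro a ha b hb hab
        simp only [mapL_xg goodD4]
        exact (graphD4.orbProd_commute okD4 ha hb hab _ _).1
    · rw [GraphData.nX, GraphData.orbProd, map_list_prod, map_list_prod]
      simp only [List.map_map]
      refine Eq.trans (congrArg List.prod (List.map_congr_left fun k hk => ?_))
        (graphD4.orbProd_perm okD4 (fun k => mapL chevD4 ι (goodD4.xg (chevD4.neg (chevD4.simple k)) (c k))) ?_)
      · simp only [Function.comp_apply, mapL_xg goodD4, twistL, graphD4.twist_simple_neg okD4]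
        rw [hc k hk, hσ, hf, map_pow]
      · intro a ha b hb hab
        simp only [mapL_xg goodD4]
        exact (graphD4.orbProd_commute okD4 ha hb hab _ _).2.2.2

omit [Fintype K] hf hK hσ in
theorem twist_slHom (g : Matrix.SpecialLinearGroup (Fin 2) L) :
    twistL σ (slHom goodD4 root2_lt g) = slHom goodD4 root2_lt (Matrix.SpecialLinearGroup.map σ g) := by
  have hρ : graphD4.ρF node2 = node2 := rhoD4.2.2
  refine DFunLike.congr_fun (sl_hom_ext (a := (twistL σ).comp (slHom goodD4 root2_lt))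
    (b := (slHom goodD4 root2_lt).comp (Matrix.SpecialLinearGroup.map σ)) (fun t => ?_) fun t => ?_) g
  · have e : Matrix.SpecialLinearGroup.map σ (slX t) = slX (σ t) := by
      apply Subtype.ext
      ext i j
      fin_cases i <;> fin_cases j <;> simp [coe_slX]
    simp only [MonoidHom.comp_apply, e, slHom_X, twistL, graphD4.twist_simple okD4, hρ]
  · have e : Matrix.SpecialLinearGroup.map σ (slY t) = slY (σ t) := by
      apply Subtype.ext
      ext i j
      fin_cases i <;> fin_cases j <;> simp [coe_slY]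
    simp only [MonoidHom.comp_apply, e, slHom_Y, twistL, graphD4.twist_simple_neg okD4, hρ]

omit [Fintype K] hf hK hσ in
/-- How the twist permutes the values of a torus element that it moves like `ng_{p₂}`. -/
theorem val_relation {u : L} (hu : u ≠ 0) (z : Fin chevD4.rank → Lˣ)
    (he : twistL σ (goodD4.torus z) = goodD4.ng root2 u * goodD4.torus z * (goodD4.ng root2 u)⁻¹)
    (k : Fin chevD4.rank) :
    σ (goodD4.torusVal z (chevD4.simple k) : L) =
      (goodD4.torusVal z (chevD4.reflectRoot 1 (chevD4.simple (graphD4.ρF k))) : L) := by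
  set n := goodD4.ng root2 u with hndef
  set T := goodD4.torus z with hT
  have hn : n ∈ chevD4.monomialSubgroup L := goodD4.ng_mem_N root2_lt hu
  have hperm : goodD4.perm n = goodD4.sPerm node2 := by
    rw [hndef, goodD4.ng_eq_hg_mul, goodD4.perm_mul
      (Subgroup.mem_sup_left (goodD4.hg_mem_diagonal root2_lt hu)) (goodD4.ng_mem_monomial root2_lt),
      goodD4.perm_diagonal (goodD4.hg_mem_diagonal root2_lt hu), one_mul]
    exact goodD4.perm_ng_simple node2
  set s : Fin chevD4.nroots := goodD4.simpleF (graphD4.ρF k) with hs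
  obtain ⟨c, hc⟩ := goodD4.conj_xg_eq hn (goodD4.sPerm node2 s)
  rw [hperm, ← Equiv.Perm.mul_apply, goodD4.sPerm_mul_self, Equiv.Perm.one_apply] at hc
  have h1 := congrArg (twistL σ) (goodD4.torus_conj_xg z (goodD4.simple_lt k.2) (1 : L))
  simp only [twistL, map_mul, map_inv, graphD4.twist_simple okD4, map_one, mul_one] at h1
  rw [show goodD4.twistHom okD4.check σ (goodD4.torus z) = n * T * n⁻¹ from he] at h1
  have h2 : n⁻¹ * goodD4.xg s.val 1 * n = goodD4.xg (goodD4.sPerm node2 s).val ((↑c⁻¹ : L)) := by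
    have := hc (↑c⁻¹ : L)
    rw [Units.mul_inv] at this
    rw [← this]
    group
  have h3 : n * T * n⁻¹ * goodD4.xg s.val 1 * (n * T * n⁻¹)⁻¹ =
      goodD4.xg s.val (goodD4.torusVal z (goodD4.sPerm node2 s).val : L) := by
    rw [show n * T * n⁻¹ * goodD4.xg s.val 1 * (n * T * n⁻¹)⁻¹ =
      n * (T * (n⁻¹ * goodD4.xg s.val 1 * n) * T⁻¹) * n⁻¹ by group, h2, hT,
      goodD4.torus_conj_xg z (Fin.isLt _), hc]
    congr 1
    rw [mul_comm, mul_assoc, Units.inv_mul, mul_one]
  exact goodD4.xg_injective s.2 ((h3.symm.trans h1).symm)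

end twist

section main

variable {K L : Type*} [Field K] [Fintype K] [Field L] [Fintype L] {q : ℕ}

/-- The construction, given an extension of degree two. -/
theorem exists_cyclic_centralizer (hq : 2 ≤ q) (f : K →+* K) (hf : ∀ x, f x = x ^ q)
    (hK : Fintype.card K = q ^ 3) (hL : Fintype.card L = q ^ 6) (σ : L →+* L) (hσ : ∀ x, σ x = x ^ q)
    (ι : K →+* L) (ζ : Lˣ) (hζ : orderOf ζ = torusOrder q) :
    ∃ H : Subgroup ↥(twistedD4 K q), IsCyclic ↥H ∧ Nat.card ↥H = torusOrder q ∧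
      Subgroup.centralizer (H : Set ↥(twistedD4 K q)) = H := by
  have hN1 : ∀ i : ℕ, torusOrder q ∣ i → ζ ^ i = 1 := fun i h => by
    rw [← orderOf_dvd_iff_pow_eq_one, hζ]; exact h
  have hzN : ∀ i : ℤ, ζ ^ i = 1 ↔ ((torusOrder q : ℕ) : ℤ) ∣ i := fun i => by
    rw [← orderOf_dvd_iff_zpow_eq_one, hζ]
  have hcast : ((torusOrder q : ℕ) : ℤ) = ((q : ℤ) ^ 3 - 1) * (q + 1) := torusOrder_cast (by omega)
  have hq3 : 1 ≤ q ^ 3 := Nat.one_le_pow _ _ (by omega)
  have hpowq : ∀ e : ℕ, σ ((ζ ^ e : Lˣ) : L) = ((ζ ^ (e * q) : Lˣ) : L) := fun e => by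
    rw [hσ, pow_mul, Units.val_pow_eq_pow_val (ζ ^ e)]
  have hzeq : ∀ a b : ℕ, ((torusOrder q : ℕ) : ℤ) ∣ (a : ℤ) - b → ζ ^ a = ζ ^ b := fun a b h => by
    rw [← hzN, zpow_sub, mul_inv_eq_one, zpow_natCast, zpow_natCast] at h; exact h
  set μ : Lˣ := ζ ^ (q ^ 2 + q + 1) with hμdef
  set nn : Lˣ := ζ ^ ((q ^ 2 + q + 1) * (q + 1)) with hnndef
  have hnμ : nn = μ ^ (q + 1) := pow_mul _ _ _
  have hσn : σ (nn : L) = nn := by
    rw [hpowq]
    refine congrArg Units.val (hzeq _ _ ⟨1, ?_⟩)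
    rw [hcast]; push_cast; ring
  have hμ2 : ((μ : L) ^ q) ^ q = μ := by
    rw [← pow_mul, ← Units.val_pow_eq_pow_val, ← pow_mul]
    refine congrArg Units.val (hzeq _ _ ⟨1, ?_⟩)
    rw [hcast]; push_cast; ring
  have hμ1 : (μ : L) ^ q ≠ μ := by
    intro h
    rw [← Units.val_pow_eq_pow_val] at h
    have h' : ζ ^ ((q ^ 2 + q + 1) * q) = ζ ^ (q ^ 2 + q + 1) := by rw [pow_mul]; exact Units.ext h
    have hlt : ∀ e : ℕ, e ≤ q → (q ^ 2 + q + 1) * e < orderOf ζ := fun e he => by
      rw [hζ, torusOrder]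
      have h4 : (q ^ 2 + q + 1) * q < q ^ 3 * (q + 1) - (q + 1) := by
        refine Nat.lt_sub_of_add_lt ?_
        nlinarith [Nat.mul_le_mul hq hq, Nat.mul_le_mul (Nat.mul_le_mul hq hq) hq]
      calc (q ^ 2 + q + 1) * e ≤ (q ^ 2 + q + 1) * q := Nat.mul_le_mul_left _ he
        _ < _ := by rw [Nat.sub_mul, one_mul]; exact h4
    have := pow_injOn_Iio_orderOf (hlt q le_rfl) (by simpa using hlt 1 (by omega)) h'
    nlinarith
  set δ : L := (μ : L) ^ q - μ with hδdef
  have hδ : δ ≠ 0 := sub_ne_zero.2 hμ1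
  let Pm : Matrix.SpecialLinearGroup (Fin 2) L :=
    ⟨!![δ⁻¹, δ⁻¹ * μ; 1, (μ : L) ^ q], by
      rw [Matrix.det_fin_two_of, mul_one, ← mul_sub, ← hδdef, inv_mul_cancel₀ hδ]⟩
  have hu : -δ⁻¹ ≠ 0 := neg_ne_zero.2 (inv_ne_zero hδ)
  have hσPm : Matrix.SpecialLinearGroup.map σ Pm = slN (-δ⁻¹) hu * Pm := by
    apply Subtype.ext
    rw [Matrix.SpecialLinearGroup.coe_mul, coe_slN]
    change Pm.1.map σ = _
    have hσδ : σ δ = -δ := by
      rw [hδdef, map_sub, map_pow, hσ (μ : L), hμ2]; ring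
    ext i j
    fin_cases i <;> fin_cases j <;>
      simp [Pm, map_pow, map_inv₀, hσδ, hσ (μ : L), hμ2, Matrix.mul_apply, Fin.sum_univ_two] <;> field_simp
  let g0L : Matrix.SpecialLinearGroup (Fin 2) L := (slConj nn Pm)⁻¹ * slD (μ : L) μ.ne_zero * Pm
  have hσg0 : Matrix.SpecialLinearGroup.map σ g0L = g0L := by
    have e1 : Matrix.SpecialLinearGroup.map σ (slConj nn Pm) = slConj nn (Matrix.SpecialLinearGroup.map σ Pm) := by
      apply Subtype.ext
      rw [coe_slConj]
      change (slConj nn Pm).1.map σ = _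
      rw [coe_slConj]
      ext i j
      fin_cases i <;> fin_cases j <;> simp [map_inv₀, hσn]
    have e2 : Matrix.SpecialLinearGroup.map σ (slD (μ : L) μ.ne_zero) =
        slD ((μ : L) ^ q) (pow_ne_zero _ μ.ne_zero) := by
      apply Subtype.ext
      rw [coe_slD]
      change (slD (μ : L) μ.ne_zero).1.map σ = _
      rw [coe_slD]
      ext i j
      fin_cases i <;> fin_cases j <;> simp [map_inv₀, hσ (μ : L)]
    have e3 : slD ((μ : L) ^ q) (pow_ne_zero _ μ.ne_zero) * slN (-δ⁻¹) hu =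
        slConj nn (slN (-δ⁻¹) hu) * slD (μ : L) μ.ne_zero := by
      apply Subtype.ext
      rw [Matrix.SpecialLinearGroup.coe_mul, Matrix.SpecialLinearGroup.coe_mul, coe_slConj, coe_slN, coe_slD, coe_slD]
      have hnv : (nn : L) = (μ : L) ^ q * μ := by rw [hnμ, Units.val_pow_eq_pow_val, pow_succ]
      have hμne : (μ : L) ≠ 0 := μ.ne_zero
      ext i j
      fin_cases i <;> fin_cases j <;> simp [Matrix.mul_apply, Fin.sum_univ_two, hnv] <;> field_simp
    simp only [g0L, map_mul, map_inv, e1, e2, hσPm, mul_inv_rev]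
    calc (slConj nn Pm)⁻¹ * (slConj nn (slN (-δ⁻¹) hu))⁻¹ * slD ((μ : L) ^ q) (pow_ne_zero _ μ.ne_zero) *
          (slN (-δ⁻¹) hu * Pm)
        = (slConj nn Pm)⁻¹ * (slConj nn (slN (-δ⁻¹) hu))⁻¹ *
            (slD ((μ : L) ^ q) (pow_ne_zero _ μ.ne_zero) * slN (-δ⁻¹) hu) * Pm := by group
      _ = _ := by rw [e3]; group
  have hdq : q - 1 ∣ q ^ 3 - 1 := by simpa using Nat.sub_dvd_pow_sub_pow q 1 3
  have hdq6 : q - 1 ∣ q ^ 6 - 1 := by simpa using Nat.sub_dvd_pow_sub_pow q 1 6
  have hd36 : q ^ 3 - 1 ∣ q ^ 6 - 1 := by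
    have h := Nat.sub_dvd_pow_sub_pow (q ^ 3) 1 2
    rwa [one_pow, ← pow_mul] at h
  have hpre : ∀ i j, ∃ x : K, x ^ q = x ∧ ι x = g0L.1 i j := fun i j => by
    refine mem_range_of_pow ι (by omega) (hK ▸ hdq) (hL ▸ hdq6) ?_
    have h := congrFun (congrFun (congrArg Subtype.val hσg0) i) j
    rw [← hσ]
    exact h
  choose g0f hg0f using hpre
  let g0 : Matrix.SpecialLinearGroup (Fin 2) K := ⟨Matrix.of g0f, ι.injective (by
    rw [RingHom.map_det, map_one, RingHom.mapMatrix_apply,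
      show (Matrix.of g0f).map ι = g0L.1 from Matrix.ext fun i j => (hg0f i j).2, g0L.2])⟩
  have hg0 : Matrix.SpecialLinearGroup.map ι g0 = g0L := Subtype.ext (Matrix.ext fun i j => (hg0f i j).2)
  obtain ⟨c, -, hc⟩ := mem_range_of_pow ι (m := q ^ 3) (y := ((ζ ^ (q + 1) : Lˣ) : L))
    (Nat.one_lt_pow (by omega) (by omega)) (hK ▸ dvd_rfl) (hL ▸ hd36) (by
      rw [← Units.val_pow_eq_pow_val, ← pow_mul]
      refine congrArg Units.val (hzeq _ _ ⟨1, ?_⟩)
      rw [hcast]; push_cast; ring)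
  have hc0 : c ≠ 0 := fun h => by
    rw [h, map_zero] at hc; exact (ζ ^ (q + 1)).ne_zero hc.symm
  let cu : Kˣ := Units.mk0 c hc0
  let zK : Fin chevD4.rank → Kˣ := fun k => (![cu, 1, cu ^ q, cu ^ q ^ 2] : Fin 4 → Kˣ) k
  let zL : Fin chevD4.rank → Lˣ := fun k => Units.map ι.toMonoidHom (zK k)
  let w : Fin chevD4.rank → Lˣ := fun k => ζ ^ parExp q k
  have z0 : zK ⟨0, by decide⟩ = cu := rfl
  have z1 : zK ⟨1, by decide⟩ = 1 := rfl
  have z2 : zK ⟨2, by decide⟩ = cu ^ q := rfl
  have z3 : zK ⟨3, by decide⟩ = cu ^ q ^ 2 := rfl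
  have w0 : w ⟨0, by decide⟩ = ζ ^ (q + 1) := rfl
  have w1 : w ⟨1, by decide⟩ = μ := rfl
  have w2 : w ⟨2, by decide⟩ = ζ ^ (q * (q + 1)) := rfl
  have w3 : w ⟨3, by decide⟩ = ζ ^ (q ^ 2 * (q + 1)) := rfl
  have hcu : Units.map (ι : K →* L) cu = ζ ^ (q + 1) := Units.ext hc
  have hzLw : zL * Pi.mulSingle node2 μ = w := by
    funext ⟨k, hk⟩
    have hk4 : k < 4 := hk
    interval_cases k <;>
      simp [zL, z0, z1, z2, z3, w0, w1, w2, w3, node2, hcu, Pi.mulSingle_apply, Fin.ext_iff, ← pow_mul, mul_comm]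
  have hzfix : ∀ k : Fin chevD4.rank, zK (graphD4.ρF k) = Units.map f.toMonoidHom (zK k) := by
    have hcu3 : cu ^ q ^ 3 = cu := by
      apply Units.ext
      rw [Units.val_pow_eq_pow_val, ← hK, FiniteField.pow_card]
    have hr3 : graphD4.ρF ⟨3, by decide⟩ = ⟨0, by decide⟩ := by decide +kernel
    obtain ⟨r0, r2, r1⟩ := rhoD4
    rintro ⟨k, hk⟩
    apply Units.ext
    rw [Units.coe_map]
    change (zK (graphD4.ρF _) : K) = f (zK _ : K)
    rw [hf, ← Units.val_pow_eq_pow_val]
    refine congrArg Units.val ?_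
    have hk4 : k < 4 := hk
    interval_cases k
    · rw [r0, z2, z0]
    · rw [r1, z1, one_pow]
    · rw [r2, z3, z2, ← pow_mul, sq]
    · rw [hr3]
      change cu = (cu ^ q ^ 2) ^ q
      rw [← pow_mul, show q ^ 2 * q = q ^ 3 by ring, hcu3]
  set x0 : GL chevD4.Idx K := goodD4.torus zK * slHom goodD4 root2_lt g0 with hx0def
  have hx0 : x0 ∈ twistedD4 K q := by
    refine mul_mem ?_ ?_
    · rw [twistedD4_eq f hf hK, graphD4.G1_eq_closure okD4 coxD4 f]
      exact graphD4.fixTorus_le_closure okD4 f ⟨zK, hzfix, rfl⟩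
    · refine slHom_mem goodD4 root2_lt (f.eqLocusField (RingHom.id K)) _ (fun t ht => ?_) (fun t ht => ?_) g0
        (fun i j => ?_)
      · change f t = t at ht
        exact Subgroup.subset_closure ⟨[(d4p2, t)], Or.inl ⟨t, (hf t).symm.trans ht, d4p2, by simp, rfl⟩, by
          rw [show root2 = d4p2 from simpleD4.2.1]
          simp [ChevalleyDatum.wordMat]⟩
      · change f t = t at ht
        exact Subgroup.subset_closure ⟨[(d4m2, t)], Or.inl ⟨t, (hf t).symm.trans ht, d4m2, by simp, rfl⟩, by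
          rw [show chevD4.neg root2 = d4m2 from simpleD4.2.2.2.2.2.1]
          simp [ChevalleyDatum.wordMat]⟩
      · change f (g0f i j) = g0f i j
        rw [hf, (hg0f i j).1]
  set P := slHom goodD4 root2_lt Pm with hPdef
  have hPx : P * mapL chevD4 ι x0 * P⁻¹ = goodD4.torus w := by
    have hmx : mapL chevD4 ι x0 = goodD4.torus zL * slHom goodD4 root2_lt g0L := by
      rw [hx0def, map_mul, mapL_torus goodD4, mapL_slHom goodD4, hg0]
    have hv : goodD4.torusVal zL⁻¹ root2 = nn := by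
      rw [torusVal_d4 _ _ root2_lt]
      simp only [show chevD4.cartan 0 root2 = -1 by decide +kernel, show chevD4.cartan 1 root2 = 2 by decide +kernel,
        show chevD4.cartan 2 root2 = -1 by decide +kernel, show chevD4.cartan 3 root2 = -1 by decide +kernel,
        Pi.inv_apply, zpow_neg, zpow_one, inv_inv]
      simp [zL, z0, z1, z2, z3, hcu, hnndef, ← pow_mul, ← pow_add]
      ring_nf
    have hconj := torus_conj_slHom goodD4 zL⁻¹ root2_lt Pm
    rw [hv, map_inv, inv_inv, ← hPdef] at hconj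
    have hsingle : goodD4.hg root2 (μ : L) = goodD4.torus (Pi.mulSingle node2 μ) :=
      (goodD4.torus_mulSingle node2 μ).symm
    rw [hmx]
    simp only [g0L, map_mul, map_inv, ← hconj, slHom_D, ← hPdef, hsingle]
    calc P * (goodD4.torus zL * (((goodD4.torus zL)⁻¹ * P * goodD4.torus zL)⁻¹ *
            goodD4.torus (Pi.mulSingle node2 μ) * P)) * P⁻¹
        = goodD4.torus zL * goodD4.torus (Pi.mulSingle node2 μ) := by group
      _ = goodD4.torus w := by rw [← map_mul, ← hzLw]
  let x : ↥(twistedD4 K q) := ⟨x0, hx0⟩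
  have hxpow : ∀ i : ℕ, x ^ i = 1 ↔ torusOrder q ∣ i := by
    intro i
    have h1 : x ^ i = 1 ↔ goodD4.torus w ^ i = 1 := by
      rw [← hPx, conj_pow, conj_eq_one_iff, ← map_pow, Subtype.ext_iff, Subgroup.coe_pow, Subgroup.coe_one]
      exact ⟨fun h => by rw [show x0 ^ i = 1 from h, map_one],
        fun h => mapL_injective ι (h.trans (map_one _).symm)⟩
    rw [h1, ← map_pow, goodD4.torus_eq_one_iff]
    have hw : ∀ r : Fin 24, goodD4.torusVal (w ^ i) r = ζ ^ ((i : ℤ) * rootExp q r) := by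
      intro r
      have hwi : w ^ i = fun k : Fin chevD4.rank => (ζ ^ i) ^ parExp q k := by
        funext k; simp [w, ← pow_mul, mul_comm]
      rw [hwi, torusVal_par, ← zpow_natCast ζ i, ← zpow_mul]
    constructor
    · intro h
      have h18 := (hzN _).1 ((hw 18).symm.trans (h 18 (by decide)))
      have h13 := (hzN _).1 ((hw 13).symm.trans (h 13 (by decide)))
      exact Int.natCast_dvd_natCast.1 (dvd_of_dvd_rootExp hq h18 h13)
    · intro h s hs
      rw [show s = ((⟨s, hs⟩ : Fin 24) : ℕ) from rfl, hw, hzN]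
      exact (Int.natCast_dvd_natCast.2 h).mul_right _
  have hxord : orderOf x = torusOrder q :=
    Nat.dvd_antisymm (orderOf_dvd_of_pow_eq_one ((hxpow _).2 dvd_rfl)) ((hxpow _).1 (pow_orderOf_eq_one x))
  refine ⟨Subgroup.zpowers x, inferInstance, by rw [Nat.card_zpowers, hxord], ?_⟩
  set C := Subgroup.centralizer (Subgroup.zpowers x : Set ↥(twistedD4 K q)) with hC
  have hHC : Subgroup.zpowers x ≤ C := by
    rintro y ⟨i, rfl⟩
    refine Subgroup.mem_centralizer_iff.2 fun u hu => ?_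
    obtain ⟨j, rfl⟩ := hu
    exact ((Commute.refl x).zpow_zpow _ _).eq
  let cj : ↥(twistedD4 K q) → GL chevD4.Idx L := fun g => P * mapL chevD4 ι g.1 * P⁻¹
  have hkey : ∀ g ∈ C, ∃ z : Fin chevD4.rank → Lˣ, cj g = goodD4.torus z ∧
      (∀ k : Fin chevD4.rank, σ (goodD4.torusVal z (chevD4.simple k) : L) =
        (goodD4.torusVal z (chevD4.reflectRoot 1 (chevD4.simple (graphD4.ρF k))) : L)) := by
    intro g hg
    have hgx : g.1 * x0 = x0 * g.1 :=
      (congrArg Subtype.val (Subgroup.mem_centralizer_iff.1 hg x (Subgroup.mem_zpowers x))).symm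
    have hgG : cj g ∈ chevD4.group L := by
      refine mul_mem (mul_mem (slHom_mem_group goodD4 root2_lt _) (mapL_mem_group ι ?_))
        (inv_mem (slHom_mem_group goodD4 root2_lt _))
      have hle : twistedD4 K q ≤ chevD4.group K := (Subgroup.closure_le _).2 fun g hg => by
        obtain ⟨wd, -, hwd⟩ := hg
        have : g = (wd.map fun p => goodD4.xg p.1 p.2).prod := by
          apply Units.ext
          rw [hwd, ← Units.coeHom_apply, map_list_prod, List.map_map, ChevalleyDatum.wordMat]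
          rfl
        rw [this]
        exact Subgroup.list_prod_mem _ fun y hy => by
          obtain ⟨p, -, rfl⟩ := List.mem_map.1 hy
          exact goodD4.xg_mem_group _ _
      exact hle g.2
    have hgc : cj g * goodD4.torus w = goodD4.torus w * cj g := by
      simp only [cj, ← hPx]
      calc P * mapL chevD4 ι g.1 * P⁻¹ * (P * mapL chevD4 ι x0 * P⁻¹)
          = P * (mapL chevD4 ι g.1 * mapL chevD4 ι x0) * P⁻¹ := by group
        _ = P * (mapL chevD4 ι x0 * mapL chevD4 ι g.1) * P⁻¹ := by rw [← map_mul, ← map_mul, hgx]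
        _ = _ := by group
    have hne : ∀ r < chevD4.nroots, goodD4.torusVal w r ≠ 1 := fun r hr h => by
      rw [show r = ((⟨r, hr⟩ : Fin 24) : ℕ) from rfl, torusVal_par, hzN] at h
      exact rootExp_ne hq _ h
    obtain ⟨hmon, hperm⟩ := RegularTorus.mem_monomial_of_commute goodD4 w hne hgG hgc
    have hcand : ∀ k : Fin 4, (goodD4.perm (cj g) (simpleIdx k) : Fin 24) = simpleIdx k ∨
        (k = 1 ∧ chevD4.pairing 18 (goodD4.perm (cj g) (simpleIdx k) : Fin 24).val ≠ chevD4.pairing 18 14) := by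
      intro k
      refine rootExp_inj hq k _ ((hzN _).1 ?_)
      have := hperm (simpleIdx k)
      have := ((torusVal_par ζ q (goodD4.perm (cj g) (simpleIdx k))).symm.trans this).trans
        (torusVal_par ζ q (simpleIdx k))
      rw [zpow_sub, this, mul_inv_cancel]
    have h18 : (goodD4.perm (cj g) (simpleIdx 0) : Fin 24) = simpleIdx 0 :=
      (hcand 0).resolve_right fun h => absurd h.1 (by decide)
    have hall : ∀ k : Fin 4, (goodD4.perm (cj g) (simpleIdx k) : Fin 24) = simpleIdx k := by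
      intro k
      refine (hcand k).resolve_right fun ⟨hk, hne'⟩ => hne' ?_
      have := H65.pairing_perm goodD4 hmon (simpleIdx 0) (simpleIdx 1)
      rw [show (goodD4.perm (cj g) (simpleIdx 0) : Fin chevD4.nroots) = simpleIdx 0 from h18] at this
      subst hk
      exact this
    have hdiag : cj g ∈ chevD4.diagonalSubgroup L := by
      refine goodD4.mem_diagonal_of_pos hmon fun k => ?_
      have e : goodD4.simpleF k = (simpleIdx k : Fin chevD4.nroots) := Fin.ext (simple_idx k)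
      rw [e, show (goodD4.perm (cj g) (simpleIdx k) : Fin chevD4.nroots) = simpleIdx k from hall k, ← e]
      exact goodD4.isPosRoot_simple k.2
    obtain ⟨z, hz⟩ := goodD4.mem_diagonal.1 hdiag
    refine ⟨z, hz, val_relation σ hu z ?_⟩
    have hP : twistL σ P = goodD4.ng root2 (-δ⁻¹) * P := by
      rw [hPdef, twist_slHom, hσPm, map_mul, slHom_N]
    rw [← hz]
    simp only [cj, map_mul, map_inv, twist_fixed f hf hK σ hσ ι g.2, hP]
    group
  have hrel : ∀ z : Fin chevD4.rank → Lˣ,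
      (∀ k : Fin chevD4.rank, σ (goodD4.torusVal z (chevD4.simple k) : L) =
        (goodD4.torusVal z (chevD4.reflectRoot 1 (chevD4.simple (graphD4.ρF k))) : L)) →
      goodD4.torusVal z 14 = (goodD4.torusVal z 18) ^ q ^ 3 * (goodD4.torusVal z 18)⁻¹ ∧
      goodD4.torusVal z 13 = (goodD4.torusVal z 18) ^ q * (goodD4.torusVal z 14)⁻¹ ∧
      goodD4.torusVal z 12 = (goodD4.torusVal z 18) ^ q ^ 2 ∧
      (goodD4.torusVal z 18) ^ torusOrder q = 1 := by
    intro z hz
    obtain ⟨r0, r2, r1⟩ := rhoD4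
    have hr3 : graphD4.ρF ⟨3, by decide⟩ = ⟨0, by decide⟩ := by decide +kernel
    obtain ⟨f0, f1, f2, f3, fn⟩ := refl_facts
    obtain ⟨s0, s1, s2⟩ := sum_roots
    set a := goodD4.torusVal z 18
    set b := goodD4.torusVal z 14
    set c2 := goodD4.torusVal z 13
    set c3 := goodD4.torusVal z 12
    have k0 : a ^ q = c2 * b := by
      have h := hz ⟨0, by decide⟩
      rw [r0, show chevD4.simple (⟨2, by decide⟩ : Fin chevD4.rank).val = 13 by decide +kernel, f0,
        goodD4.torusVal_add z 1 1 s0, zpow_one, zpow_one, hσ, ← Units.val_pow_eq_pow_val] at h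
      rw [← Units.ext h, show chevD4.simple (⟨0, by decide⟩ : Fin chevD4.rank).val = 18 by decide +kernel]
    have k2 : c2 ^ q = c3 * b := by
      have h := hz ⟨2, by decide⟩
      rw [r2, show chevD4.simple (⟨3, by decide⟩ : Fin chevD4.rank).val = 12 by decide +kernel, f1,
        goodD4.torusVal_add z 1 1 s1, zpow_one, zpow_one, hσ, ← Units.val_pow_eq_pow_val] at h
      rw [← Units.ext h, show chevD4.simple (⟨2, by decide⟩ : Fin chevD4.rank).val = 13 by decide +kernel]
    have k3 : c3 ^ q = a * b := by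
      have h := hz ⟨3, by decide⟩
      rw [hr3, show chevD4.simple (⟨0, by decide⟩ : Fin chevD4.rank).val = 18 by decide +kernel, f2,
        goodD4.torusVal_add z 1 1 s2, zpow_one, zpow_one, hσ, ← Units.val_pow_eq_pow_val] at h
      rw [← Units.ext h, show chevD4.simple (⟨3, by decide⟩ : Fin chevD4.rank).val = 12 by decide +kernel]
    have k1 : b ^ q = b⁻¹ := by
      have h := hz ⟨1, by decide⟩
      rw [r1, show chevD4.simple (⟨1, by decide⟩ : Fin chevD4.rank).val = 14 by decide +kernel, f3, ← fn,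
        goodD4.torusVal_neg (by decide) z, hσ, ← Units.val_pow_eq_pow_val] at h
      exact Units.ext h
    have e2 : c2 = a ^ q * b⁻¹ := by rw [k0, mul_inv_cancel_right]
    have e3 : c3 = a ^ q ^ 2 := by
      have h := k2
      rw [e2, mul_pow, inv_pow, k1, inv_inv, ← pow_mul, ← sq] at h
      exact (mul_right_cancel h).symm
    have eb : b = a ^ q ^ 3 * a⁻¹ := by
      have h := k3
      rw [e3, ← pow_mul, show q ^ 2 * q = q ^ 3 by ring] at h
      rw [h, mul_comm a, mul_inv_cancel_right]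
    refine ⟨eb, e2, e3, ?_⟩
    have hb : b ^ (q + 1) = 1 := by rw [pow_succ, k1, inv_mul_cancel]
    have e' : b = a ^ (q ^ 3 - 1) := by
      rw [eb]
      nth_rewrite 1 [show q ^ 3 = q ^ 3 - 1 + 1 by omega]
      rw [pow_succ, mul_inv_cancel_right]
    rw [torusOrder, pow_mul, ← e', hb]
  have hval18 : ∀ (z : Fin chevD4.rank → Lˣ) (M : GL chevD4.Idx L), M = goodD4.torus z →
      (M : Matrix chevD4.Idx chevD4.Idx L) (.inr ⟨18, by decide⟩) (.inr ⟨18, by decide⟩) =
        (goodD4.torusVal z 18 : L) := by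
    rintro z M rfl
    rw [goodD4.coe_torus]
    simp [rdiag]
  have hmem : ∀ g : C, ∃ u : {u : Lˣ // u ^ torusOrder q = 1},
      ∃ z : Fin chevD4.rank → Lˣ, cj g.1 = goodD4.torus z ∧ u.1 = goodD4.torusVal z 18 ∧
        (∀ k : Fin chevD4.rank, σ (goodD4.torusVal z (chevD4.simple k) : L) =
          (goodD4.torusVal z (chevD4.reflectRoot 1 (chevD4.simple (graphD4.ρF k))) : L)) := fun g => by
    obtain ⟨z, h1, h2⟩ := hkey g.1 g.2
    exact ⟨⟨_, (hrel z h2).2.2.2⟩, z, h1, rfl, h2⟩
  choose ψ hψ using hmem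
  have hψinj : Function.Injective ψ := by
    intro g g' h
    obtain ⟨z, h1, h2, h3⟩ := hψ g
    obtain ⟨z', h1', h2', h3'⟩ := hψ g'
    have h0 : goodD4.torusVal z 18 = goodD4.torusVal z' 18 := by rw [← h2, ← h2', h]
    obtain ⟨a1, a2, a3, -⟩ := hrel z h3
    obtain ⟨b1, b2, b3, -⟩ := hrel z' h3'
    have e14 : goodD4.torusVal z 14 = goodD4.torusVal z' 14 := by rw [a1, b1, h0]
    have et : goodD4.torus z = goodD4.torus z' := RegularTorus.torus_ext goodD4 fun j => by
      rw [simple_idx j]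
      change Fin 4 at j
      fin_cases j
      · exact h0
      · exact e14
      · change goodD4.torusVal z 13 = goodD4.torusVal z' 13
        rw [a2, b2, h0, e14]
      · change goodD4.torusVal z 12 = goodD4.torusVal z' 12
        rw [a3, b3, h0]
    have e : cj g.1 = cj g'.1 := by rw [h1, h1', et]
    simp only [cj, mul_left_inj, mul_right_inj] at e
    exact Subtype.ext (Subtype.ext (mapL_injective ι e))
  have hcard : Nat.card C ≤ torusOrder q :=
    (Nat.card_le_card_of_injective ψ hψinj).trans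
      (le_of_eq (card_units_pow_eq_one (hL ▸ torusOrder_dvd)))
  exact (Subgroup.eq_of_le_of_card_ge hHC (by rw [Nat.card_zpowers, hxord]; exact hcard)).symm

end main

/-- ³D₄(q) has a self-centralizing cyclic subgroup of order `(q³ - 1)(q + 1)`. -/
theorem exists_selfCentralizing {K : Type*} [Field K] [Fintype K] (q : ℕ) (hq : IsPrimePow q)
    (hK : Fintype.card K = q ^ 3) :
    ∃ H : Subgroup ↥(twistedD4 K q), IsCyclic ↥H ∧ Nat.card ↥H = (q ^ 3 - 1) * (q + 1) ∧
      Subgroup.centralizer (H : Set ↥(twistedD4 K q)) = H := by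
  have hq2 : 2 ≤ q := hq.two_le
  obtain ⟨f, hf⟩ := exists_qFrob hq (by omega) hK
  obtain ⟨p, hp⟩ := CharP.exists K
  haveI : Fact p.Prime := ⟨CharP.char_is_prime K p⟩
  let L := FiniteField.Extension K p 2
  haveI : Fintype L := Fintype.ofFinite L
  have hL : Fintype.card L = q ^ 6 := by
    rw [Fintype.card_eq_nat_card, FiniteField.natCard_extension, Nat.card_eq_fintype_card, hK, ← pow_mul]
  obtain ⟨σ, hσ⟩ := exists_qFrob (F := L) hq (by omega) hL
  obtain ⟨g, hg⟩ := IsCyclic.exists_generator (α := Lˣ)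
  obtain ⟨m, hm⟩ := torusOrder_dvd (q := q)
  have hgord : orderOf g = torusOrder q * m := by
    rw [orderOf_eq_card_of_forall_mem_zpowers hg, Nat.card_units, Nat.card_eq_fintype_card, hL, hm]
  have h6 : 1 < q ^ 6 := Nat.one_lt_pow (by omega) (by omega)
  have hm0 : 0 < m := by
    rcases Nat.eq_zero_or_pos m with h | h
    · rw [h, mul_zero] at hm; omega
    · exact h
  have hζ : orderOf (g ^ m) = torusOrder q := by
    rw [orderOf_pow_of_dvd (by omega) (hgord ▸ dvd_mul_left _ _), hgord, Nat.mul_div_cancel _ hm0]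
  exact exists_cyclic_centralizer hq2 f hf hK hL σ hσ (algebraMap K L) (g ^ m) hζ

end Cfsg.Agent.H23.D4Torus
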